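import Cfsg.Prelude.Def_Sporadic_a
import Mathlib

/-!
Projective planes of order four, given as Steiner systems `S(2, 5, 21)`.
-/

namespace Cfsg.Agent.Lib.Plane4

open Finset

variable {α : Type*} [Fintype α] [DecidableEq α] {L : Set (Finset α)}

/-- A plane of order four. -/
structure IsPlane (L : Set (Finset α)) : Prop where
  card_points : Fintype.card α = 21
  steiner : Cfsg.IsSteinerSystem 2 5 L

/-- No line meets the set in more than two points. -/
def IsArc (L : Set (Finset α)) (S : Finset α) : Prop := ∀ l ∈ L, (l ∩ S).card ≤ 2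

/-- The set of lines as a finset. -/
noncomputable def lines (L : Set (Finset α)) : Finset (Finset α) := by
  classical exact univ.filter fun l => l ∈ L

theorem mem_lines {l : Finset α} : l ∈ lines L ↔ l ∈ L := by simp [lines]

/-- The lines through a point. -/
noncomputable def through (L : Set (Finset α)) (p : α) : Finset (Finset α) := (lines L).filter fun l => p ∈ l

theorem mem_through {l : Finset α} {p : α} : l ∈ through L p ↔ l ∈ L ∧ p ∈ l := by simp [through, mem_lines]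

open Classical in
/-- The line through two points. -/
noncomputable def line (L : Set (Finset α)) (p q : α) : Finset α :=
  if h : ∃ l ∈ L, p ∈ l ∧ q ∈ l then h.choose else ∅

namespace IsPlane

variable (P : IsPlane L)
include P

theorem card_line {l : Finset α} (hl : l ∈ L) : l.card = 5 := P.steiner.1 l hl

theorem eq_of_two {p q : α} (hpq : p ≠ q) {l m : Finset α} (hl : l ∈ L) (hm : m ∈ L)
    (h1 : p ∈ l) (h2 : q ∈ l) (h3 : p ∈ m) (h4 : q ∈ m) : l = m := by
  obtain ⟨b, -, hu⟩ := P.steiner.2 {p, q} (card_pair hpq)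
  rw [hu l ⟨hl, by simp [insert_subset_iff, h1, h2]⟩, hu m ⟨hm, by simp [insert_subset_iff, h3, h4]⟩]

theorem eq_point {p q : α} {l m : Finset α} (hl : l ∈ L) (hm : m ∈ L) (hne : l ≠ m)
    (h1 : p ∈ l) (h2 : q ∈ l) (h3 : p ∈ m) (h4 : q ∈ m) : p = q :=
  by_contra fun h => hne (P.eq_of_two h hl hm h1 h2 h3 h4)

theorem line_spec {p q : α} (hpq : p ≠ q) : line L p q ∈ L ∧ p ∈ line L p q ∧ q ∈ line L p q := by
  have h : ∃ l ∈ L, p ∈ l ∧ q ∈ l := by
    obtain ⟨b, ⟨hb, hsub⟩, -⟩ := P.steiner.2 {p, q} (card_pair hpq)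
    exact ⟨b, hb, hsub (by simp), hsub (by simp)⟩
  rw [line, dif_pos h]
  exact ⟨h.choose_spec.1, h.choose_spec.2.1, h.choose_spec.2.2⟩

theorem line_eq {p q : α} (hpq : p ≠ q) {l : Finset α} (hl : l ∈ L) (hp : p ∈ l) (hq : q ∈ l) : line L p q = l :=
  P.eq_of_two hpq (P.line_spec hpq).1 hl (P.line_spec hpq).2.1 (P.line_spec hpq).2.2 hp hq

theorem line_comm {p q : α} (hpq : p ≠ q) : line L p q = line L q p :=
  P.line_eq hpq (P.line_spec hpq.symm).1 (P.line_spec hpq.symm).2.2 (P.line_spec hpq.symm).2.1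

theorem inter_card_le {l m : Finset α} (hl : l ∈ L) (hm : m ∈ L) (hne : l ≠ m) : (l ∩ m).card ≤ 1 :=
  card_le_one.2 fun p hp q hq => P.eq_point hl hm hne (mem_inter.1 hp).1 (mem_inter.1 hq).1 (mem_inter.1 hp).2 (mem_inter.1 hq).2

theorem card_through (p : α) : (through L p).card = 5 := by
  have h : (univ.erase p).card = ∑ l ∈ through L p, (l.erase p).card := by
    rw [← card_biUnion]
    · congr 1
      ext q
      simp only [mem_erase, mem_univ, and_true, mem_biUnion, mem_through]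
      exact ⟨fun h => ⟨line L p q, ⟨(P.line_spec (Ne.symm h)).1, (P.line_spec (Ne.symm h)).2.1⟩, h, (P.line_spec (Ne.symm h)).2.2⟩,
        fun ⟨_, _, h, _⟩ => h⟩
    · intro l hl m hm hne
      refine disjoint_left.2 fun q hq hq' => ?_
      simp only [mem_coe, mem_through] at hl hm
      exact (mem_erase.1 hq).1 (P.eq_point hl.1 hm.1 hne (mem_erase.1 hq).2 hl.2 (mem_erase.1 hq').2 hm.2)
  have h4 : ∀ l ∈ through L p, (l.erase p).card = 4 := fun l hl => by
    rw [card_erase_of_mem (mem_through.1 hl).2, P.card_line (mem_through.1 hl).1]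
  rw [card_erase_of_mem (mem_univ p), card_univ, P.card_points, sum_congr rfl h4, sum_const, smul_eq_mul] at h
  omega

theorem card_lines : (lines L).card = 21 := by
  have h := sum_card_bipartiteAbove_eq_sum_card_bipartiteBelow (s := (univ : Finset α)) (t := lines L) (fun p l => p ∈ l)
  have h1 : ∀ p ∈ (univ : Finset α), (bipartiteAbove (fun p l => p ∈ l) (lines L) p).card = 5 := fun p _ => P.card_through p
  have h2 : ∀ l ∈ lines L, (bipartiteBelow (fun p l => p ∈ l) (univ : Finset α) l).card = 5 := fun l hl => by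
    rw [show bipartiteBelow (fun p l => p ∈ l) (univ : Finset α) l = l by ext; simp [bipartiteBelow]]
    exact P.card_line (mem_lines.1 hl)
  rw [sum_congr rfl h1, sum_congr rfl h2, sum_const, sum_const, card_univ, P.card_points] at h
  simp at h
  omega

/-- Any two lines meet. -/
theorem meet {l m : Finset α} (hl : l ∈ L) (hm : m ∈ L) : ∃ p, p ∈ l ∧ p ∈ m := by
  obtain ⟨p, hp⟩ : m.Nonempty := card_pos.1 (by rw [P.card_line hm]; omega)
  by_cases hpl : p ∈ l
  · exact ⟨p, hpl, hp⟩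
  have hne : ∀ q ∈ l, p ≠ q := fun q hq e => hpl (e ▸ hq)
  have hi : Set.InjOn (line L p) (l : Set α) := fun q hq q' hq' e => by
    refine P.eq_point hl (P.line_spec (hne q hq)).1 ?_ hq hq' (P.line_spec (hne q hq)).2.2 ?_
    · exact fun h => hpl (h ▸ (P.line_spec (hne q hq)).2.1)
    · rw [e]; exact (P.line_spec (hne q' hq')).2.2
  have h : l.image (line L p) = through L p := by
    refine eq_of_subset_of_card_le (fun x hx => ?_) ?_
    · obtain ⟨q, hq, rfl⟩ := mem_image.1 hx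
      exact mem_through.2 ⟨(P.line_spec (hne q hq)).1, (P.line_spec (hne q hq)).2.1⟩
    · rw [card_image_of_injOn hi, P.card_line hl, P.card_through]
  obtain ⟨q, hq, hqm⟩ := mem_image.1 (h.symm ▸ mem_through.2 ⟨hm, hp⟩ : m ∈ l.image (line L p))
  exact ⟨q, hq, hqm ▸ (P.line_spec (hne q hq)).2.2⟩

theorem inter_card {l m : Finset α} (hl : l ∈ L) (hm : m ∈ L) (hne : l ≠ m) : (l ∩ m).card = 1 := by
  obtain ⟨p, hp, hp'⟩ := P.meet hl hm
  exact le_antisymm (P.inter_card_le hl hm hne) (card_pos.2 ⟨p, mem_inter.2 ⟨hp, hp'⟩⟩)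

theorem inter_eq {l m : Finset α} (hl : l ∈ L) (hm : m ∈ L) (hne : l ≠ m) {p : α} (h1 : p ∈ l) (h2 : p ∈ m) :
    l ∩ m = {p} :=
  (eq_of_subset_of_card_le (singleton_subset_iff.2 (mem_inter.2 ⟨h1, h2⟩))
    (by rw [P.inter_card hl hm hne, card_singleton])).symm

theorem arc_three {S : Finset α} (hS : IsArc L S) {a b c : α} (ha : a ∈ S) (hb : b ∈ S) (hc : c ∈ S)
    (hab : a ≠ b) (hac : a ≠ c) (hbc : b ≠ c) {l : Finset α} (hl : l ∈ L) (h1 : a ∈ l) (h2 : b ∈ l) : c ∉ l := by
  intro h3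
  have h : ({a, b, c} : Finset α) ⊆ l ∩ S := by simp [insert_subset_iff, *]
  have := (card_le_card h).trans (hS l hl)
  rw [card_eq_three.2 ⟨a, b, c, hab, hac, hbc, rfl⟩] at this
  omega

/-- The points off the sides of a triangle. -/
theorem card_off_triangle {a b c : α} (hab : a ≠ b) (hac : a ≠ c) (hbc : b ≠ c) (hc : c ∉ line L a b) :
    ((line L a b ∪ line L a c) ∪ line L b c).card = 12 := by
  obtain ⟨h1, h1a, h1b⟩ := P.line_spec hab
  obtain ⟨h2, h2a, h2c⟩ := P.line_spec hac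
  obtain ⟨h3, h3b, h3c⟩ := P.line_spec hbc
  have n12 : line L a b ≠ line L a c := fun e => hc (e ▸ h2c)
  have n13 : line L a b ≠ line L b c := fun e => hc (e ▸ h3c)
  have n23 : line L a c ≠ line L b c := fun e => by
    have := P.line_eq hab h2 h2a (e ▸ h3b)
    exact n12 this
  have e12 := card_union_add_card_inter (line L a b) (line L a c)
  rw [P.inter_eq h1 h2 n12 h1a h2a, card_singleton, P.card_line h1, P.card_line h2] at e12
  have e3 : (line L a b ∪ line L a c) ∩ line L b c = {b, c} := by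
    rw [union_inter_distrib_right, P.inter_eq h1 h3 n13 h1b h3b, P.inter_eq h2 h3 n23 h2c h3c]
    rfl
  have e := card_union_add_card_inter (line L a b ∪ line L a c) (line L b c)
  rw [e3, card_pair hbc, P.card_line h3] at e
  omega

end IsPlane

/-- The points outside an arc on none of its secants. -/
noncomputable def extend (L : Set (Finset α)) (S : Finset α) : Finset α :=
  univ.filter fun p => p ∉ S ∧ ∀ l ∈ lines L, p ∈ l → (l ∩ S).card ≤ 1

namespace IsPlane

variable (P : IsPlane L)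
include P

theorem mem_extend {S : Finset α} (hS : IsArc L S) {p : α} :
    p ∈ extend L S ↔ p ∉ S ∧ ∀ a ∈ S, ∀ b ∈ S, a ≠ b → p ∉ line L a b := by
  simp only [extend, mem_filter, mem_univ, true_and, mem_lines]
  refine and_congr_right fun _ => ⟨fun h a ha b hb hab hp => ?_, fun h l hl hp => ?_⟩
  · obtain ⟨h1, h2, h3⟩ := P.line_spec hab
    have := h _ h1 hp
    exact hab (card_le_one.1 this a (mem_inter.2 ⟨h2, ha⟩) b (mem_inter.2 ⟨h3, hb⟩))
  · refine card_le_one.2 fun a ha b hb => by_contra fun hab => ?_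
    rw [mem_inter] at ha hb
    exact h a ha.2 b hb.2 hab ((P.line_eq hab hl ha.1 hb.1).symm ▸ hp)

/-- The description with a distinguished point of a four-arc. -/
theorem extend_spec {S : Finset α} (hS : IsArc L S) (hc4 : S.card = 4) {d : α} (hd : d ∈ S) :
    (extend L S).card = 2 ∧ ∀ l ∈ L, d ∈ l → l ∩ S = {d} → (l ∩ extend L S).card = 1 := by
  obtain ⟨a, b, c, hab, hac, hbc, he⟩ := card_eq_three.1 (by rw [card_erase_of_mem hd, hc4] : (S.erase d).card = 3)
  have hSe : ∀ x, x ∈ S ↔ x = d ∨ x = a ∨ x = b ∨ x = c := fun x => by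
    by_cases hx : x = d
    · simp [hx, hd]
    · have : x ∈ S.erase d ↔ x ∈ ({a, b, c} : Finset α) := by rw [he]
      simpa [hx] using this
  have hmem : ∀ x ∈ ({a, b, c} : Finset α), x ∈ S ∧ d ≠ x := fun x hx => by
    rw [← he, mem_erase] at hx
    exact ⟨hx.2, Ne.symm hx.1⟩
  obtain ⟨ha, hda⟩ := hmem a (by simp)
  obtain ⟨hb, hdb⟩ := hmem b (by simp)
  obtain ⟨hc, hdc⟩ := hmem c (by simp)
  obtain ⟨h1, h1a, h1b⟩ := P.line_spec hab
  obtain ⟨h2, h2a, h2c⟩ := P.line_spec hac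
  obtain ⟨h3, h3b, h3c⟩ := P.line_spec hbc
  set T := (line L a b ∪ line L a c) ∪ line L b c with hT
  have hTc : T.card = 12 := P.card_off_triangle hab hac hbc (P.arc_three hS ha hb hc hab hac hbc h1 h1a h1b)
  have hdT : d ∉ T := by
    simp only [hT, mem_union, not_or]
    exact ⟨⟨P.arc_three hS ha hb hd hab hda.symm hdb.symm h1 h1a h1b, P.arc_three hS ha hc hd hac hda.symm hdc.symm h2 h2a h2c⟩,
      P.arc_three hS hb hc hd hbc hdb.symm hdc.symm h3 h3b h3c⟩
  obtain ⟨k1, k1d, k1a⟩ := P.line_spec hda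
  obtain ⟨k2, k2d, k2b⟩ := P.line_spec hdb
  obtain ⟨k3, k3d, k3c⟩ := P.line_spec hdc
  have hrest : ∀ l ∈ L, d ∈ l → (l \ T).card + (l ∩ T).card = 5 := fun l hl _ => by
    rw [card_sdiff_add_card_inter, P.card_line hl]
  have hmeet : ∀ x y z : α, ∀ lxy lxz lyz : Finset α, lxy ∈ L → lxz ∈ L → lyz ∈ L → x ∈ lxy → x ∈ lxz →
      T = (lxy ∪ lxz) ∪ lyz → y ∈ lxy → y ∈ lyz → x ≠ y → d ∉ lxy → d ∉ lxz → d ∉ lyz → x ∉ lyz →
      ((line L d x) \ T).card = 3 := by
    intro x y z lxy lxz lyz g1 g2 g3 gx gx' hTe _ _ _ n1 n2 n3 nx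
    have hdx : d ≠ x := fun e => n1 (e ▸ gx)
    obtain ⟨k, kd, kx⟩ := P.line_spec hdx
    obtain ⟨w, hw⟩ := card_eq_one.1 (P.inter_card k g3 fun e => n3 (e ▸ kd))
    have hwm : w ∈ line L d x ∧ w ∈ lyz := mem_inter.1 (hw.symm ▸ mem_singleton_self w)
    have e : line L d x ∩ T = {x, w} := by
      rw [hTe, inter_union_distrib_left, inter_union_distrib_left, P.inter_eq k g1 (fun e => n1 (e ▸ kd)) kx gx,
        P.inter_eq k g2 (fun e => n2 (e ▸ kd)) kx gx', hw]
      rw [union_self]; rfl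
    have := hrest _ k kd
    rw [e, card_pair (fun e' => nx (by rw [e']; exact hwm.2))] at this
    omega
  simp only [hT, mem_union, not_or] at hdT
  have a3 : a ∉ line L b c := P.arc_three hS hb hc ha hbc hab.symm hac.symm h3 h3b h3c
  have b2 : b ∉ line L a c := P.arc_three hS ha hc hb hac hab hbc.symm h2 h2a h2c
  have c1 : c ∉ line L a b := P.arc_three hS ha hb hc hab hac hbc h1 h1a h1b
  have ea := hmeet a b c _ _ _ h1 h2 h3 h1a h2a hT h1b h3b hab hdT.1.1 hdT.1.2 hdT.2 a3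
  have eb := hmeet b a c _ _ _ h1 h3 h2 h1b h3b (by rw [hT]; ac_rfl) h1a h2a hab.symm hdT.1.1 hdT.2 hdT.1.2 b2
  have ec := hmeet c a b _ _ _ h2 h3 h1 h2c h3c (by rw [hT]; ac_rfl) h2a h1a hac.symm hdT.1.2 hdT.2 hdT.1.1 c1
  have hU : extend L S = (univ \ T) \ (line L d a ∪ line L d b ∪ line L d c) := by
    ext p
    rw [P.mem_extend hS]
    simp only [hT, mem_sdiff, mem_univ, true_and, mem_union, not_or]
    constructor
    · rintro ⟨_, h⟩
      exact ⟨⟨⟨h a ha b hb hab, h a ha c hc hac⟩, h b hb c hc hbc⟩, ⟨h d hd a ha hda, h d hd b hb hdb⟩, h d hd c hc hdc⟩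
    · rintro ⟨⟨⟨p1, p2⟩, p3⟩, ⟨q1, q2⟩, q3⟩
      refine ⟨fun hp => ?_, fun x hx y hy hxy hp => ?_⟩
      · rcases (hSe p).1 hp with rfl | rfl | rfl | rfl
        exacts [q1 k1d, p1 h1a, p1 h1b, p2 h2c]
      · have hp' : p ∈ line L y x := P.line_comm hxy ▸ hp
        rcases (hSe x).1 hx with e | e | e | e <;> rcases (hSe y).1 hy with e' | e' | e' | e' <;>
          rw [e, e'] at hxy hp hp' <;>
          first
            | exact hxy rfl
            | exact p1 hp | exact p2 hp | exact p3 hp | exact q1 hp | exact q2 hp | exact q3 hp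
            | exact p1 hp' | exact p2 hp' | exact p3 hp' | exact q1 hp' | exact q2 hp' | exact q3 hp'
  have nab : line L d a ≠ line L d b := fun e => P.arc_three hS hd ha hb hda hdb hab k1 k1d k1a (e ▸ k2b)
  have nac : line L d a ≠ line L d c := fun e => P.arc_three hS hd ha hc hda hdc hac k1 k1d k1a (e ▸ k3c)
  have nbc : line L d b ≠ line L d c := fun e => P.arc_three hS hd hb hc hdb hdc hbc k2 k2d k2b (e ▸ k3c)
  have hdT' : d ∉ T := by simp only [hT, mem_union, not_or]; exact hdT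
  set A := line L d a \ T with hA
  set B := line L d b \ T with hB
  set C := line L d c \ T with hC
  have i1 : A ∩ B = {d} := by
    ext p
    simp only [hA, hB, mem_inter, mem_sdiff, mem_singleton]
    exact ⟨fun h => P.eq_point k1 k2 nab h.1.1 k1d h.2.1 k2d, fun e => by rw [e]; exact ⟨⟨k1d, hdT'⟩, k2d, hdT'⟩⟩
  have i2 : (A ∪ B) ∩ C = {d} := by
    ext p
    simp only [hA, hB, hC, mem_inter, mem_union, mem_sdiff, mem_singleton]
    refine ⟨?_, fun e => by rw [e]; exact ⟨Or.inl ⟨k1d, hdT'⟩, k3d, hdT'⟩⟩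
    rintro ⟨h | h, h'⟩
    exacts [P.eq_point k1 k3 nac h.1 k1d h'.1 k3d, P.eq_point k2 k3 nbc h.1 k2d h'.1 k3d]
  have c12 := card_union_add_card_inter A B
  rw [i1, ea, eb, card_singleton] at c12
  have c123 := card_union_add_card_inter (A ∪ B) C
  rw [i2, ec, card_singleton] at c123
  have hU2 : extend L S = (univ \ T) \ (A ∪ B ∪ C) := by
    rw [hU]
    ext p
    simp only [hA, hB, hC, mem_sdiff (s := univ \ T), mem_union, mem_sdiff]
    constructor
    · rintro ⟨h1, h2⟩
      exact ⟨h1, fun h => h2 (h.imp (Or.imp And.left And.left) And.left)⟩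
    · rintro ⟨h1, h2⟩
      exact ⟨h1, fun h => h2 (h.imp (Or.imp (⟨·, h1.2⟩) (⟨·, h1.2⟩)) (⟨·, h1.2⟩))⟩
  have hsub : A ∪ B ∪ C ⊆ univ \ T := by
    intro p hp
    refine mem_sdiff.2 ⟨mem_univ p, ?_⟩
    simp only [hA, hB, hC, mem_union, mem_sdiff] at hp
    rcases hp with (h | h) | h <;> exact h.2
  refine ⟨?_, fun l hl hdl hlS => ?_⟩
  · rw [hU2, card_sdiff_of_subset hsub, card_sdiff_of_subset (subset_univ T), card_univ, P.card_points, hTc]
    omega
  · have hnot : ∀ x ∈ S, d ≠ x → x ∉ l := fun x hx hdx hxl =>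
      hdx (mem_singleton.1 (hlS ▸ mem_inter.2 ⟨hxl, hx⟩)).symm
    obtain ⟨w1, e1⟩ := card_eq_one.1 (P.inter_card hl h1 fun e => hdT.1.1 (e ▸ hdl))
    obtain ⟨w2, e2⟩ := card_eq_one.1 (P.inter_card hl h2 fun e => hdT.1.2 (e ▸ hdl))
    obtain ⟨w3, e3⟩ := card_eq_one.1 (P.inter_card hl h3 fun e => hdT.2 (e ▸ hdl))
    have m1 : w1 ∈ l ∧ w1 ∈ line L a b := mem_inter.1 (e1.symm ▸ mem_singleton_self w1)
    have m2 : w2 ∈ l ∧ w2 ∈ line L a c := mem_inter.1 (e2.symm ▸ mem_singleton_self w2)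
    have m3 : w3 ∈ l ∧ w3 ∈ line L b c := mem_inter.1 (e3.symm ▸ mem_singleton_self w3)
    have d12 : w1 ≠ w2 := fun e => hnot a ha hda (P.eq_point h1 h2 (fun e' => c1 (e' ▸ h2c)) h1a m1.2 h2a (e ▸ m2.2) ▸ m1.1)
    have d13 : w1 ≠ w3 := fun e => hnot b hb hdb (P.eq_point h1 h3 (fun e' => c1 (e' ▸ h3c)) h1b m1.2 h3b (e ▸ m3.2) ▸ m1.1)
    have d23 : w2 ≠ w3 := fun e => hnot c hc hdc (P.eq_point h2 h3 (fun e' => b2 (e' ▸ h3b)) h2c m2.2 h3c (e ▸ m3.2) ▸ m2.1)
    have hlT : l ∩ T = {w1, w2, w3} := by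
      rw [hT, inter_union_distrib_left, inter_union_distrib_left, e1, e2, e3, union_assoc]
      rfl
    have := hrest l hl hdl
    rw [hlT, card_eq_three.2 ⟨w1, w2, w3, d12, d13, d23, rfl⟩] at this
    have hlU : l ∩ extend L S = (l \ T).erase d := by
      rw [hU]
      ext p
      simp only [mem_inter, mem_sdiff, mem_univ, true_and, mem_erase, mem_union, not_or]
      constructor
      · rintro ⟨hp, hT', ⟨q1, _⟩, _⟩
        exact ⟨fun e => q1 (e ▸ k1d), hp, hT'⟩
      · rintro ⟨hpd, hp, hT'⟩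
        exact ⟨hp, hT', ⟨fun q => hpd (P.eq_point hl k1 (fun e => hnot a ha hda (e ▸ k1a)) hp hdl q k1d),
          fun q => hpd (P.eq_point hl k2 (fun e => hnot b hb hdb (e ▸ k2b)) hp hdl q k2d)⟩,
          fun q => hpd (P.eq_point hl k3 (fun e => hnot c hc hdc (e ▸ k3c)) hp hdl q k3d)⟩
    rw [hlU, card_erase_of_mem (mem_sdiff.2 ⟨hdl, hdT'⟩)]
    omega

/-- A four-arc lies in exactly one hyperoval. -/
theorem existsUnique_hyperoval {S : Finset α} (hc4 : S.card = 4) (hS : IsArc L S) :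
    ∃! H : Finset α, (H.card = 6 ∧ IsArc L H) ∧ S ⊆ H := by
  obtain ⟨d, hd⟩ : S.Nonempty := card_pos.1 (by omega)
  have hU2 := (P.extend_spec hS hc4 hd).1
  have hdisj : Disjoint S (extend L S) := disjoint_left.2 fun p hp hp' => ((P.mem_extend hS).1 hp').1 hp
  have hcard : (S ∪ extend L S).card = 6 := by rw [card_union_of_disjoint hdisj, hc4, hU2]
  refine ⟨S ∪ extend L S, ⟨⟨hcard, fun l hl => ?_⟩, subset_union_left⟩, ?_⟩
  · rw [inter_union_distrib_left]
    refine (card_union_le _ _).trans ?_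
    have hlU : (l ∩ extend L S).card ≤ 2 := (card_le_card inter_subset_right).trans hU2.le
    rcases Nat.lt_trichotomy (l ∩ S).card 1 with h | h | h
    · omega
    · obtain ⟨x, hx⟩ := card_eq_one.1 h
      have hxm : x ∈ l ∧ x ∈ S := mem_inter.1 (hx.symm ▸ mem_singleton_self x)
      have := (P.extend_spec hS hc4 hxm.2).2 l hl hxm.1 hx
      omega
    · have h0 : l ∩ extend L S = ∅ := by
        refine eq_empty_of_forall_notMem fun p hp => ?_
        rw [mem_inter] at hp
        have := (mem_filter.1 hp.2).2.2 l (mem_lines.2 hl) hp.1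
        omega
      have := hS l hl
      rw [h0, card_empty]
      omega
  · rintro H ⟨⟨hH6, hH⟩, hSH⟩
    refine eq_of_subset_of_card_le (fun p hp => ?_) (by omega)
    by_cases hpS : p ∈ S
    · exact mem_union_left _ hpS
    · refine mem_union_right _ ((P.mem_extend hS).2 ⟨hpS, fun a ha b hb hab hpl => ?_⟩)
      obtain ⟨g, ga, gb⟩ := P.line_spec hab
      exact P.arc_three hH (hSH ha) (hSH hb) hp hab (fun e => hpS (e ▸ ha)) (fun e => hpS (e ▸ hb)) g ga gb hpl

end IsPlane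

end Cfsg.Agent.Lib.Plane4
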