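import Cfsg.Agent.Lib.Plane4.Basic

/-!
Counting arcs in a plane of order four.
-/

namespace Cfsg.Agent.Lib.Plane4

open Finset

variable {α : Type*} [Fintype α] [DecidableEq α] {L : Set (Finset α)}

open Classical in
/-- The arcs of a given size. -/
noncomputable def arcs (L : Set (Finset α)) (k : ℕ) : Finset (Finset α) :=
  (univ.powersetCard k).filter fun S => IsArc L S

theorem mem_arcs {k : ℕ} {S : Finset α} : S ∈ arcs L k ↔ S.card = k ∧ IsArc L S := by
  simp [arcs]

namespace IsPlane

variable (P : IsPlane L)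
include P

theorem card_triangles : (arcs L 3).card = 1120 := by
  classical
  have hsub : (lines L).biUnion (fun l => l.powersetCard 3) ⊆ (univ : Finset α).powersetCard 3 := by
    intro S hS
    obtain ⟨l, -, hS⟩ := mem_biUnion.1 hS
    exact mem_powersetCard.2 ⟨subset_univ _, (mem_powersetCard.1 hS).2⟩
  have he : arcs L 3 = (univ : Finset α).powersetCard 3 \ (lines L).biUnion (fun l => l.powersetCard 3) := by
    ext S
    simp only [mem_arcs, mem_sdiff, mem_powersetCard, mem_biUnion, mem_lines, subset_univ, true_and]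
    refine and_congr_right fun hc => ⟨fun h ⟨l, hl, hle, _⟩ => ?_, fun h l hl => ?_⟩
    · have := h l hl
      rw [inter_eq_right.2 hle, hc] at this
      omega
    · by_contra h'
      refine h ⟨l, hl, ?_, hc⟩
      rw [← inter_eq_right]
      exact eq_of_subset_of_card_le inter_subset_right (by omega)
  have hd : (lines L : Set (Finset α)).PairwiseDisjoint (fun l => l.powersetCard 3) := by
    intro l hl m hm hne
    refine disjoint_left.2 fun S hS hS' => ?_
    rw [mem_powersetCard] at hS hS'
    have := (card_le_card (subset_inter hS.1 hS'.1)).trans (P.inter_card_le (mem_lines.1 hl) (mem_lines.1 hm) hne)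
    omega
  rw [he, card_sdiff_of_subset hsub, card_biUnion hd,
    sum_congr rfl (fun l hl => by rw [card_powersetCard, P.card_line (mem_lines.1 hl)]), sum_const, P.card_lines,
    card_powersetCard, card_univ, P.card_points]
  decide

theorem card_extensions {T : Finset α} (hT : T ∈ arcs L 3) :
    ((arcs L 4).filter fun S => T ⊆ S).card = 9 := by
  classical
  obtain ⟨hc, hA⟩ := mem_arcs.1 hT
  obtain ⟨a, b, c, hab, hac, hbc, rfl⟩ := card_eq_three.1 hc
  obtain ⟨h1, h1a, h1b⟩ := P.line_spec hab
  obtain ⟨h2, h2a, h2c⟩ := P.line_spec hac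
  obtain ⟨h3, h3b, h3c⟩ := P.line_spec hbc
  set U := (line L a b ∪ line L a c) ∪ line L b c with hU
  have hcl : c ∉ line L a b := P.arc_three hA (by simp) (by simp) (by simp) hab hac hbc h1 h1a h1b
  have hU12 : U.card = 12 := P.card_off_triangle hab hac hbc hcl
  have hTU : ∀ x ∈ ({a, b, c} : Finset α), x ∈ U := fun x hx => by
    simp only [mem_insert, mem_singleton] at hx
    rcases hx with e | e | e <;> rw [e, hU] <;> simp [h1a, h1b, h2c]
  have hi : Set.InjOn (fun x => insert x ({a, b, c} : Finset α)) ((univ \ U : Finset α) : Set α) := by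
    intro x hx y hy h
    simp only [coe_sdiff, coe_univ, Set.mem_diff, Set.mem_univ, mem_coe, true_and] at hx hy
    have : x ∈ insert y ({a, b, c} : Finset α) := by
      rw [← (show insert x ({a, b, c} : Finset α) = insert y {a, b, c} from h)]; exact mem_insert_self _ _
    exact (mem_insert.1 this).resolve_right fun h' => hx (hTU x h')
  have he : (arcs L 4).filter (fun S => ({a, b, c} : Finset α) ⊆ S) =
      (univ \ U).image fun x => insert x ({a, b, c} : Finset α) := by
    ext S
    simp only [mem_filter, mem_arcs, mem_image, mem_sdiff, mem_univ, true_and]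
    constructor
    · rintro ⟨⟨hS4, hS⟩, hsub⟩
      obtain ⟨x, hx⟩ := card_eq_one.1 (by rw [card_sdiff_of_subset hsub, hS4, hc] : (S \ {a, b, c}).card = 1)
      have hxm := mem_sdiff.1 (hx.symm ▸ mem_singleton_self x)
      have hne : ∀ y ∈ ({a, b, c} : Finset α), y ≠ x := fun y hy e => hxm.2 (e ▸ hy)
      refine ⟨x, ?_, eq_of_subset_of_card_le (insert_subset_iff.2 ⟨hxm.1, hsub⟩) (by rw [card_insert_of_notMem hxm.2, hS4, hc])⟩
      simp only [hU, mem_union, not_or]
      exact ⟨⟨P.arc_three hS (hsub (by simp)) (hsub (by simp)) hxm.1 hab (hne a (by simp)) (hne b (by simp)) h1 h1a h1b,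
        P.arc_three hS (hsub (by simp)) (hsub (by simp)) hxm.1 hac (hne a (by simp)) (hne c (by simp)) h2 h2a h2c⟩,
        P.arc_three hS (hsub (by simp)) (hsub (by simp)) hxm.1 hbc (hne b (by simp)) (hne c (by simp)) h3 h3b h3c⟩
    · rintro ⟨x, hx, rfl⟩
      have hxT : x ∉ ({a, b, c} : Finset α) := fun h => hx (hTU x h)
      refine ⟨⟨by rw [card_insert_of_notMem hxT, hc], fun l hl => ?_⟩, subset_insert _ _⟩
      by_cases hxl : x ∈ l
      · rw [inter_insert_of_mem hxl]
        refine (card_insert_le _ _).trans (Nat.succ_le_succ (card_le_one.2 fun y hy z hz => ?_))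
        rw [mem_inter] at hy hz
        by_contra hyz
        simp only [hU, mem_union, not_or] at hx
        have e := P.line_eq hyz hl hy.1 hz.1
        have e' := (P.line_comm hyz).symm.trans e
        simp only [mem_insert, mem_singleton] at hy hz
        rcases hy.2 with f | f | f <;> rcases hz.2 with f' | f' | f' <;> rw [f, f'] at hyz e e' <;>
          first
            | exact hyz rfl
            | exact hx.1.1 (e ▸ hxl) | exact hx.1.2 (e ▸ hxl) | exact hx.2 (e ▸ hxl)
            | exact hx.1.1 (e' ▸ hxl) | exact hx.1.2 (e' ▸ hxl) | exact hx.2 (e' ▸ hxl)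
      · rw [inter_insert_of_notMem hxl]
        exact hA l hl
  rw [he, card_image_of_injOn hi, card_sdiff_of_subset (subset_univ _), card_univ, P.card_points, hU12]

theorem card_four_arcs : (arcs L 4).card = 2520 := by
  classical
  have h := sum_card_bipartiteAbove_eq_sum_card_bipartiteBelow (s := arcs L 3) (t := arcs L 4) (fun T S => T ⊆ S)
  have h1 : ∀ T ∈ arcs L 3, (bipartiteAbove (fun T S => T ⊆ S) (arcs L 4) T).card = 9 := fun T hT => P.card_extensions hT
  have h2 : ∀ S ∈ arcs L 4, (bipartiteBelow (fun T S => T ⊆ S) (arcs L 3) S).card = 4 := fun S hS => by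
    obtain ⟨hc, hA⟩ := mem_arcs.1 hS
    have : bipartiteBelow (fun T S => T ⊆ S) (arcs L 3) S = S.powersetCard 3 := by
      ext T
      simp only [bipartiteBelow, mem_filter, mem_arcs, mem_powersetCard]
      exact ⟨fun h => ⟨h.2, h.1.1⟩, fun h => ⟨⟨h.2, fun l hl => (card_le_card (inter_subset_inter_left h.1)).trans (hA l hl)⟩, h.1⟩⟩
    rw [this, card_powersetCard, hc]
    rfl
  rw [sum_congr rfl h1, sum_congr rfl h2, sum_const, sum_const, P.card_triangles] at h
  simp at h
  omega

theorem card_hyperovals : (arcs L 6).card = 168 := by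
  classical
  have h := sum_card_bipartiteAbove_eq_sum_card_bipartiteBelow (s := arcs L 4) (t := arcs L 6) (fun S H => S ⊆ H)
  have h1 : ∀ S ∈ arcs L 4, (bipartiteAbove (fun S H => S ⊆ H) (arcs L 6) S).card = 1 := fun S hS => by
    obtain ⟨hc, hA⟩ := mem_arcs.1 hS
    obtain ⟨H, hH, hu⟩ := P.existsUnique_hyperoval hc hA
    refine card_eq_one.2 ⟨H, ?_⟩
    ext K
    simp only [bipartiteAbove, mem_filter, mem_arcs, mem_singleton]
    exact ⟨fun h => hu K h, fun h => h ▸ hH⟩
  have h2 : ∀ H ∈ arcs L 6, (bipartiteBelow (fun S H => S ⊆ H) (arcs L 4) H).card = 15 := fun H hH => by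
    obtain ⟨hc, hA⟩ := mem_arcs.1 hH
    have : bipartiteBelow (fun S H => S ⊆ H) (arcs L 4) H = H.powersetCard 4 := by
      ext T
      simp only [bipartiteBelow, mem_filter, mem_arcs, mem_powersetCard]
      exact ⟨fun h => ⟨h.2, h.1.1⟩, fun h => ⟨⟨h.2, fun l hl => (card_le_card (inter_subset_inter_left h.1)).trans (hA l hl)⟩, h.1⟩⟩
    rw [this, card_powersetCard, hc]
    rfl
  rw [sum_congr rfl h1, sum_congr rfl h2, sum_const, sum_const, P.card_four_arcs] at h
  simp at h
  omega

theorem exists_hyperoval : ∃ H : Finset α, H.card = 6 ∧ IsArc L H := by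
  obtain ⟨H, hH⟩ : (arcs L 6).Nonempty := card_pos.1 (by rw [P.card_hyperovals]; omega)
  exact ⟨H, mem_arcs.1 hH⟩

end IsPlane

end Cfsg.Agent.Lib.Plane4
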