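import Cfsg.Agent.Lib.Plane4.Basic

/-!
Coordinatisation of a plane of order four by a hyperoval.
-/

namespace Cfsg.Agent.Lib.Plane4

open Finset

/-- Codes for the fifteen synthemes on six letters: the partner of `0`, and one of three choices. -/
abbrev Syn := Fin 5 × Fin 3

/-- The partner of a letter in a syntheme. -/
def partner (s : Syn) : Fin 6 → Fin 6 :=
  (![![
    ![1, 0, 3, 2, 5, 4],
    ![1, 0, 4, 5, 2, 3],
    ![1, 0, 5, 4, 3, 2]],
   ![
    ![2, 3, 0, 1, 5, 4],
    ![2, 4, 0, 5, 1, 3],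
    ![2, 5, 0, 4, 3, 1]],
   ![
    ![3, 2, 1, 0, 5, 4],
    ![3, 4, 5, 0, 1, 2],
    ![3, 5, 4, 0, 2, 1]],
   ![
    ![4, 2, 1, 5, 0, 3],
    ![4, 3, 5, 1, 0, 2],
    ![4, 5, 3, 2, 0, 1]],
   ![
    ![5, 2, 1, 4, 3, 0],
    ![5, 3, 4, 1, 2, 0],
    ![5, 4, 3, 2, 1, 0]]] : Fin 5 → Fin 3 → Fin 6 → Fin 6) s.1 s.2

theorem partner_invol : ∀ s i, partner s (partner s i) = i ∧ partner s i ≠ i := by decide

theorem partner_inj : ∀ s t, (∀ i, partner s i = partner t i) → s = t := by decide

theorem partner_zero : ∀ s : Syn, partner s 0 = s.1.succ := by decide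

set_option synthInstance.maxSize 4000 in
set_option synthInstance.maxHeartbeats 400000 in
theorem exists_code : ∀ a : Fin 6, a ≠ 0 → ∀ b : Fin 6, b ≠ a → b ≠ 1 → ∀ c : Fin 6, c ≠ a → c ≠ b → c ≠ 2 →
    ∀ d : Fin 6, d ≠ a → d ≠ b → d ≠ c → d ≠ 3 → ∀ e : Fin 6, e ≠ a → e ≠ b → e ≠ c → e ≠ d → e ≠ 4 →
    ∀ g : Fin 6, g ≠ a → g ≠ b → g ≠ c → g ≠ d → g ≠ e → g ≠ 5 →
    (∀ i, ![a, b, c, d, e, g] (![a, b, c, d, e, g] i) = i) → ∃ s, ∀ i, partner s i = ![a, b, c, d, e, g] i := by
  decide +kernel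

theorem exists_syn {f : Fin 6 → Fin 6} (h1 : ∀ i, f (f i) = i) (h2 : ∀ i, f i ≠ i) : ∃ s, ∀ i, partner s i = f i := by
  have hf : ![f 0, f 1, f 2, f 3, f 4, f 5] = f := by
    funext i; fin_cases i <;> rfl
  have hinj : ∀ i j, i ≠ j → f i ≠ f j := fun i j h e => h (by rw [← h1 i, e, h1 j])
  have := exists_code (f 0) (h2 0) (f 1) (hinj 1 0 (by decide)) (h2 1)
    (f 2) (hinj 2 0 (by decide)) (hinj 2 1 (by decide)) (h2 2)
    (f 3) (hinj 3 0 (by decide)) (hinj 3 1 (by decide)) (hinj 3 2 (by decide)) (h2 3)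
    (f 4) (hinj 4 0 (by decide)) (hinj 4 1 (by decide)) (hinj 4 2 (by decide)) (hinj 4 3 (by decide)) (h2 4)
    (f 5) (hinj 5 0 (by decide)) (hinj 5 1 (by decide)) (hinj 5 2 (by decide)) (hinj 5 3 (by decide)) (hinj 5 4 (by decide)) (h2 5)
  rw [hf] at this
  exact this h1

/-- Two synthemes share no pair. -/
def Compat (s t : Syn) : Prop := ∀ i, partner s i ≠ partner t i

/-- A total, as a choice of a syntheme for each partner of `0`. -/
def IsTotal (T : Fin 5 → Fin 3) : Prop := ∀ k l : Fin 5, k ≠ l → Compat (k, T k) (l, T l)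

instance : DecidablePred IsTotal := fun T => by unfold IsTotal Compat; infer_instance

theorem card_totals : (univ.filter IsTotal).card = 6 := by decide +kernel

/-- The model line of a pair. -/
def secantLine (i j : Fin 6) : Finset (Fin 6 ⊕ Syn) :=
  ({Sum.inl i, Sum.inl j} : Finset (Fin 6 ⊕ Syn)) ∪ (univ.filter fun s => partner s i = j).image Sum.inr

/-- The model line of a total. -/
def totalLine (T : Fin 5 → Fin 3) : Finset (Fin 6 ⊕ Syn) := univ.image fun k => Sum.inr (k, T k)

theorem card_secantLine : ∀ i j : Fin 6, i ≠ j → (secantLine i j).card = 5 := by decide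

theorem card_totalLine (T : Fin 5 → Fin 3) : (totalLine T).card = 5 := by
  rw [totalLine, card_image_of_injective _ fun a b h => (Prod.ext_iff.1 (Sum.inr_injective h)).1]
  rfl

theorem secantLine_comm : ∀ i j : Fin 6, secantLine i j = secantLine j i := by decide

/-- The lines of the model. -/
def modelLines : Finset (Finset (Fin 6 ⊕ Syn)) :=
  ((univ.filter fun p : Fin 6 × Fin 6 => p.1 < p.2).image fun p => secantLine p.1 p.2) ∪
    (univ.filter IsTotal).image totalLine

theorem card_modelLines : modelLines.card ≤ 21 := by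
  refine (card_union_le _ _).trans ?_
  refine (add_le_add card_image_le (card_image_le.trans card_totals.le)).trans ?_
  decide

variable {α : Type*} [Fintype α] [DecidableEq α] {L : Set (Finset α)}

/-- A hyperoval with numbered points. -/
structure Frame (L : Set (Finset α)) (e : Fin 6 → α) : Prop where
  plane : IsPlane L
  inj : Function.Injective e
  arc : IsArc L (univ.image e)

namespace Frame

variable {e : Fin 6 → α} (F : Frame L e)
include F

theorem exists_partner {p : α} (hp : ∀ i, p ≠ e i) (i : Fin 6) : ∃ j, j ≠ i ∧ e j ∈ line L p (e i) := by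
  have hi : Set.InjOn (fun j => line L (e i) (e j)) ((univ.erase i : Finset (Fin 6)) : Set (Fin 6)) := by
    intro j hj k hk h
    simp only [coe_erase, coe_univ, Set.mem_diff, Set.mem_univ, Set.mem_singleton_iff, true_and] at hj hk
    by_contra hjk
    have g := F.plane.line_spec (F.inj.ne (Ne.symm hj))
    have g' := F.plane.line_spec (F.inj.ne (Ne.symm hk))
    exact F.plane.arc_three F.arc (mem_image_of_mem e (mem_univ i)) (mem_image_of_mem e (mem_univ j))
      (mem_image_of_mem e (mem_univ k)) (F.inj.ne (Ne.symm hj)) (F.inj.ne (Ne.symm hk)) (F.inj.ne hjk)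
      g.1 g.2.1 g.2.2 ((show line L (e i) (e j) = line L (e i) (e k) from h).symm ▸ g'.2.2)
  have h : (univ.erase i).image (fun j => line L (e i) (e j)) = through L (e i) := by
    refine eq_of_subset_of_card_le (fun x hx => ?_) ?_
    · obtain ⟨j, hj, rfl⟩ := mem_image.1 hx
      have g := F.plane.line_spec (F.inj.ne (Ne.symm (mem_erase.1 hj).1))
      exact mem_through.2 ⟨g.1, g.2.1⟩
    · rw [card_image_of_injOn hi, F.plane.card_through]
      simp
  obtain ⟨g1, g2, g3⟩ := F.plane.line_spec (hp i)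
  obtain ⟨j, hj, hje⟩ := mem_image.1 (h.symm ▸ mem_through.2 ⟨g1, g3⟩ :
    line L p (e i) ∈ (univ.erase i).image (fun j => line L (e i) (e j)))
  exact ⟨j, (mem_erase.1 hj).1, hje ▸ (F.plane.line_spec (F.inj.ne (Ne.symm (mem_erase.1 hj).1))).2.2⟩

theorem partner_unique {p : α} (hp : ∀ i, p ≠ e i) {i j k : Fin 6} (hji : j ≠ i) (hki : k ≠ i)
    (hj : e j ∈ line L p (e i)) (hk : e k ∈ line L p (e i)) : j = k := by
  by_contra hjk
  obtain ⟨g1, -, g3⟩ := F.plane.line_spec (hp i)
  exact F.plane.arc_three F.arc (mem_image_of_mem e (mem_univ i)) (mem_image_of_mem e (mem_univ j))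
    (mem_image_of_mem e (mem_univ k)) (F.inj.ne (Ne.symm hji)) (F.inj.ne (Ne.symm hki)) (F.inj.ne hjk) g1 g3 hj hk

/-- The point `p` has the syntheme `s`. -/
theorem exists_syn_of_point {p : α} (hp : ∀ i, p ≠ e i) :
    ∃ s, ∀ i, p ∈ line L (e i) (e (partner s i)) := by
  choose f hf1 hf2 using F.exists_partner hp
  have hl : ∀ i, line L (e i) (e (f i)) = line L p (e i) := fun i =>
    F.plane.line_eq (F.inj.ne (Ne.symm (hf1 i))) (F.plane.line_spec (hp i)).1 (F.plane.line_spec (hp i)).2.2 (hf2 i)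
  have hff : ∀ i, f (f i) = i := fun i => by
    obtain ⟨g1, g2, g3⟩ := F.plane.line_spec (hp i)
    have h : line L p (e (f i)) = line L p (e i) := F.plane.line_eq (hp _) g1 g2 (hf2 i)
    exact F.partner_unique hp (hf1 _) (Ne.symm (hf1 i)) (hf2 _) (h.symm ▸ g3)
  obtain ⟨s, hs⟩ := exists_syn hff hf1
  exact ⟨s, fun i => by rw [hs, hl]; exact (F.plane.line_spec (hp i)).2.1⟩

theorem syn_partner {p : α} (hp : ∀ i, p ≠ e i) {i j : Fin 6} (hij : i ≠ j) (hl : p ∈ line L (e i) (e j))
    {s : Syn} (hs : p ∈ line L (e i) (e (partner s i))) : partner s i = j := by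
  have hne := Ne.symm (partner_invol s i).2
  have g := F.plane.line_spec (F.inj.ne hij)
  have g' := F.plane.line_spec (F.inj.ne hne)
  refine F.partner_unique hp (Ne.symm hne) (Ne.symm hij) ?_ ?_
  · rw [F.plane.line_eq (hp i) g'.1 hs g'.2.1]; exact g'.2.2
  · rw [F.plane.line_eq (hp i) g.1 hl g.2.1]; exact g.2.2

theorem syn_unique {p : α} (hp : ∀ i, p ≠ e i) {s t : Syn} (hs : ∀ i, p ∈ line L (e i) (e (partner s i)))
    (ht : ∀ i, p ∈ line L (e i) (e (partner t i))) : s = t :=
  partner_inj s t fun i => F.syn_partner hp (Ne.symm (partner_invol t i).2) (ht i) (hs i)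

theorem point_unique {p q : α} (hp : ∀ i, p ≠ e i) {s : Syn} (hs : ∀ i, p ∈ line L (e i) (e (partner s i)))
    (ht : ∀ i, q ∈ line L (e i) (e (partner s i))) : p = q := by
  obtain ⟨i, hi0, hi1⟩ := (by decide : ∀ t : Syn, ∃ i : Fin 6, i ≠ 0 ∧ i ≠ partner t 0) s
  have g := F.plane.line_spec (F.inj.ne (Ne.symm (partner_invol s 0).2))
  have g' := F.plane.line_spec (F.inj.ne (Ne.symm (partner_invol s i).2))
  refine F.plane.eq_point g.1 g'.1 (fun h => ?_) (hs 0) (ht 0) (hs i) (ht i)
  exact F.plane.arc_three F.arc (mem_image_of_mem e (mem_univ 0)) (mem_image_of_mem e (mem_univ (partner s 0)))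
    (mem_image_of_mem e (mem_univ i)) (F.inj.ne (Ne.symm (partner_invol s 0).2)) (F.inj.ne (Ne.symm hi0))
    (F.inj.ne (Ne.symm hi1)) g.1 g.2.1 g.2.2 (h ▸ g'.2.1)

theorem exists_coord : ∃ Φ : Fin 6 ⊕ Syn → α, Function.Bijective Φ ∧ (∀ i, Φ (Sum.inl i) = e i) ∧
    (∀ s i, Φ (Sum.inr s) ∈ line L (e i) (e (partner s i))) := by
  classical
  have hc : Fintype.card {p : α // ∀ i, p ≠ e i} = 15 := by
    rw [Fintype.card_subtype]
    have : univ.filter (fun p => ∀ i, p ≠ e i) = univ \ univ.image e := by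
      ext p; simp [eq_comm]
    rw [this, card_sdiff_of_subset (subset_univ _), card_univ, F.plane.card_points,
      card_image_of_injective _ F.inj, card_univ, Fintype.card_fin]
  choose ψ hψ using fun p : {p : α // ∀ i, p ≠ e i} => F.exists_syn_of_point p.2
  have hb : Function.Bijective ψ := (Fintype.bijective_iff_injective_and_card ψ).2
    ⟨fun p q h => Subtype.ext (F.point_unique p.2 (hψ p) (h ▸ hψ q)), by rw [hc]; rfl⟩
  let E := Equiv.ofBijective ψ hb
  refine ⟨Sum.elim e fun s => (E.symm s : α), ?_, fun i => rfl, fun s i => ?_⟩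
  · refine (Fintype.bijective_iff_injective_and_card _).2 ⟨?_, by rw [F.plane.card_points]; rfl⟩
    rintro (i | s) (j | t) h
    · exact congrArg Sum.inl (F.inj h)
    · exact absurd h.symm ((E.symm t).2 i)
    · exact absurd h ((E.symm s).2 j)
    · exact congrArg Sum.inr (E.symm.injective (Subtype.ext h))
  · have h := hψ (E.symm s) i
    rwa [show ψ (E.symm s) = s from E.apply_symm_apply s] at h

theorem lines_eq {Φ : Fin 6 ⊕ Syn → α} (hΦ : Function.Bijective Φ) (h1 : ∀ i, Φ (Sum.inl i) = e i)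
    (h2 : ∀ s i, Φ (Sum.inr s) ∈ line L (e i) (e (partner s i))) :
    (fun b => b.image Φ) '' (modelLines : Set (Finset (Fin 6 ⊕ Syn))) = L := by
  classical
  have hoff : ∀ s i, Φ (Sum.inr s) ≠ e i := fun s i h => Sum.inl_ne_inr (hΦ.1 ((h1 i).trans h.symm))
  have hmem : ∀ l ∈ L, l ∈ modelLines.image (fun b => b.image Φ) := by
    intro l hl
    by_cases hx : ∃ i, e i ∈ l
    · obtain ⟨i, hi⟩ := hx
      obtain ⟨q, hq, hqi⟩ := exists_mem_ne (by rw [F.plane.card_line hl]; omega : 1 < l.card) (e i)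
      obtain ⟨j, hji, hj⟩ : ∃ j, j ≠ i ∧ e j ∈ l := by
        by_cases h : ∃ j, q = e j
        · obtain ⟨j, rfl⟩ := h
          exact ⟨j, fun e' => hqi (by rw [e']), hq⟩
        · push Not at h
          obtain ⟨j, hj1, hj2⟩ := F.exists_partner h i
          exact ⟨j, hj1, F.plane.line_eq (h i) hl hq hi ▸ hj2⟩
      have hle : line L (e i) (e j) = l := F.plane.line_eq (F.inj.ne hji.symm) hl hi hj
      have him : (secantLine i j).image Φ = l := by
        refine eq_of_subset_of_card_le (fun p hp => ?_) ?_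
        · obtain ⟨m, hm, rfl⟩ := mem_image.1 hp
          simp only [secantLine, mem_union, mem_insert, mem_singleton, mem_image, mem_filter, mem_univ, true_and] at hm
          rcases hm with (rfl | rfl) | ⟨s, hs, rfl⟩
          · rw [h1]; exact hi
          · rw [h1]; exact hj
          · rw [← hle, ← hs]; exact h2 s i
        · rw [card_image_of_injective _ hΦ.1, card_secantLine i j hji.symm, F.plane.card_line hl]
      refine mem_image.2 ⟨secantLine i j, mem_union_left _ ?_, him⟩
      rcases lt_or_gt_of_ne hji.symm with h | h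
      · exact mem_image.2 ⟨(i, j), by simp [h], rfl⟩
      · exact mem_image.2 ⟨(j, i), by simp [h], secantLine_comm j i⟩
    · push Not at hx
      set S := univ.filter fun s => Φ (Sum.inr s) ∈ l with hS
      have himg : S.image (fun s => Φ (Sum.inr s)) = l := by
        ext p
        simp only [hS, mem_image, mem_filter, mem_univ, true_and]
        refine ⟨fun ⟨s, hs, e'⟩ => e' ▸ hs, fun hp => ?_⟩
        obtain ⟨m | s, rfl⟩ := hΦ.2 p
        · exact absurd (h1 m ▸ hp) (hx m)
        · exact ⟨s, hp, rfl⟩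
      have hS5 : S.card = 5 := by
        rw [← F.plane.card_line hl, ← himg, card_image_of_injective _ fun a b h => Sum.inr_injective (hΦ.1 h)]
      have hcompat : ∀ s ∈ S, ∀ t ∈ S, s ≠ t → Compat s t := by
        intro s hs t ht hst i hi
        have g := F.plane.line_spec (F.inj.ne (Ne.symm (partner_invol s i).2))
        refine hst (Sum.inr_injective (hΦ.1 (F.plane.eq_point g.1 hl (fun h => hx i (h ▸ g.2.1)) (h2 s i) ?_
          (mem_filter.1 hs).2 (mem_filter.1 ht).2)))
        rw [hi]; exact h2 t i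
      have hfst : S.image Prod.fst = univ := eq_univ_of_card _ (by
        rw [card_image_of_injOn ?_, hS5]
        · rfl
        intro s hs t ht h
        by_contra hst
        exact hcompat s hs t ht hst 0 (by rw [partner_zero, partner_zero, h]))
      have hex : ∀ k : Fin 5, ∃ c : Fin 3, (k, c) ∈ S := fun k => by
        obtain ⟨⟨a, c⟩, hc, rfl⟩ := mem_image.1 (hfst.symm ▸ mem_univ k : k ∈ S.image Prod.fst)
        exact ⟨c, hc⟩
      choose T hT using hex
      have hTot : IsTotal T := fun k m hkm => hcompat _ (hT k) _ (hT m) fun h => hkm (congrArg Prod.fst h)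
      have him : (totalLine T).image Φ = l := by
        refine eq_of_subset_of_card_le (fun p hp => ?_) ?_
        · obtain ⟨m, hm, rfl⟩ := mem_image.1 hp
          obtain ⟨k, -, rfl⟩ := mem_image.1 hm
          exact (mem_filter.1 (hT k)).2
        · rw [card_image_of_injective _ hΦ.1, card_totalLine, F.plane.card_line hl]
      exact mem_image.2 ⟨totalLine T, mem_union_right _ (mem_image.2 ⟨T, mem_filter.2 ⟨mem_univ _, hTot⟩, rfl⟩), him⟩
  have heq : lines L = modelLines.image (fun b => b.image Φ) :=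
    eq_of_subset_of_card_le (fun l hl => hmem l (mem_lines.1 hl))
      (card_image_le.trans (card_modelLines.trans F.plane.card_lines.ge))
  rw [← coe_image, ← heq]
  ext l
  exact mem_lines

end Frame

theorem exists_iso {β : Type*} [Fintype β] [DecidableEq β] {L' : Set (Finset β)} {e : Fin 6 → α} {e' : Fin 6 → β}
    (F : Frame L e) (F' : Frame L' e') : ∃ g : α ≃ β, (fun b => b.image g) '' L = L' ∧ ∀ i, g (e i) = e' i := by
  obtain ⟨Φ, hΦ, h1, h2⟩ := F.exists_coord
  obtain ⟨Φ', hΦ', h1', h2'⟩ := F'.exists_coord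
  refine ⟨(Equiv.ofBijective Φ hΦ).symm.trans (Equiv.ofBijective Φ' hΦ'), ?_, fun i => ?_⟩
  · rw [← F.lines_eq hΦ h1 h2, ← F'.lines_eq hΦ' h1' h2', Set.image_image]
    refine Set.image_congr fun b _ => ?_
    rw [image_image]
    refine image_congr fun x _ => ?_
    simp
  · simp [← h1, ← h1']

theorem iso_unique {e : Fin 6 → α} (F : Frame L e) {g : α ≃ α} (hL : ∀ l ∈ L, l.image g ∈ L) (he : ∀ i, g (e i) = e i) :
    g = Equiv.refl α := by
  refine Equiv.ext fun p => ?_
  show g p = p
  by_cases hp : ∃ i, p = e i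
  · obtain ⟨i, rfl⟩ := hp; exact he i
  push Not at hp
  obtain ⟨s, hs⟩ := F.exists_syn_of_point hp
  refine (F.point_unique hp hs fun i => ?_).symm
  have hne := F.inj.ne (Ne.symm (partner_invol s i).2)
  have g1 := F.plane.line_spec hne
  rw [F.plane.line_eq hne (hL _ g1.1) (mem_image.2 ⟨_, g1.2.1, he i⟩) (mem_image.2 ⟨_, g1.2.2, he _⟩)]
  exact mem_image_of_mem g (hs i)

theorem exists_frame {H : Finset α} (P : IsPlane L) (hc : H.card = 6) (hH : IsArc L H) :
    ∃ e : Fin 6 → α, Frame L e ∧ univ.image e = H := by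
  let e := (H.equivFinOfCardEq hc).symm
  have h : univ.image (fun i => (e i : α)) = H := by
    ext p
    simp only [mem_image, mem_univ, true_and]
    exact ⟨fun ⟨i, hi⟩ => hi ▸ (e i).2, fun hp => ⟨e.symm ⟨p, hp⟩, by rw [e.apply_symm_apply]⟩⟩
  exact ⟨fun i => (e i : α), ⟨P, Subtype.val_injective.comp e.injective, h.symm ▸ hH⟩, h⟩

end Cfsg.Agent.Lib.Plane4
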